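import Cfsg.Agent.Chars.Apps.PermMult
import Cfsg.Agent.Chars.Basic.Kernel
import Mathlib.GroupTheory.GroupAction.Primitive
import Mathlib.GroupTheory.GroupAction.MultipleTransitivity
import Mathlib.GroupTheory.GroupAction.Jordan
import Mathlib.GroupTheory.Perm.Cycle.Type
import Mathlib.GroupTheory.Sylow

/-!
# Primitive groups: small facts used for degree `2 p`
-/

set_option autoImplicit false

namespace CfsgLib.PrimitiveTwoP

open MulAction Cfsg CfsgLib.Chars CfsgLib.Chars.Apps

universe u w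

variable {G : Type u} [Group G] {Ω : Type w} [MulAction G Ω]

theorem smul_eq_self_of_normal_stabilizer [IsPretransitive G Ω] {a : Ω}
    (h : (stabilizer G a).Normal) {g : G} (hg : g ∈ stabilizer G a) (x : Ω) : g • x = x := by
  obtain ⟨l, rfl⟩ := exists_smul_eq G a x
  have h1 : (l⁻¹ * g * (l⁻¹)⁻¹) • a = a := h.conj_mem g hg l⁻¹
  rw [inv_inv, mul_smul, mul_smul, inv_smul_eq_iff] at h1
  exact h1

theorem not_normal_stabilizer [Finite G] [IsPreprimitive G Ω] [FaithfulSMul G Ω]
    (hnp : ¬ (Nat.card Ω).Prime) [Nontrivial Ω] (a : Ω) : ¬ (stabilizer G a).Normal := by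
  intro h
  have hbot : stabilizer G a = ⊥ := by
    rw [eq_bot_iff]
    intro g hg
    rw [Subgroup.mem_bot]
    exact eq_of_smul_eq_smul fun x : Ω => by rw [one_smul, smul_eq_self_of_normal_stabilizer h hg]
  have hco : IsCoatom (stabilizer G a) :=
    IsPreprimitive.isCoatom_stabilizer_of_isPreprimitive (G := G) a
  have hidx := index_stabilizer_of_transitive G a
  rw [hbot] at hco hidx
  rw [Subgroup.index_bot] at hidx
  refine hnp ?_
  rw [← hidx]
  have h2 : 2 ≤ Nat.card G := by
    by_contra hlt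
    have : Subsingleton G := Finite.card_le_one_iff_subsingleton.1 (by omega)
    exact hco.1 (Subsingleton.elim _ _)
  obtain ⟨q, hq, hqd⟩ := Nat.exists_prime_and_dvd (show Nat.card G ≠ 1 by omega)
  haveI := Fact.mk hq
  obtain ⟨x, hx⟩ := exists_prime_orderOf_dvd_card' q hqd
  have hz : Subgroup.zpowers x = ⊤ := hco.2 _ (bot_lt_iff_ne_bot.2 fun h0 => by
    rw [Subgroup.zpowers_eq_bot.1 h0, orderOf_one] at hx
    exact hq.ne_one hx.symm)
  have h3 := Nat.card_zpowers x
  rw [hz, Subgroup.card_top, hx] at h3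
  rw [h3]
  exact hq

theorem two_le_card_orbit [Finite G] [Finite Ω] [IsPreprimitive G Ω] [FaithfulSMul G Ω]
    (hnp : ¬ (Nat.card Ω).Prime) {a b : Ω} (hb : b ≠ a) :
    2 ≤ Nat.card (orbit (stabilizer G a) b) := by
  haveI : Nontrivial Ω := ⟨⟨b, a, hb⟩⟩
  haveI : Nonempty (orbit (stabilizer G a) b) := ⟨⟨b, mem_orbit_self b⟩⟩
  have hpos : 0 < Nat.card (orbit (stabilizer G a) b) := Nat.card_pos
  by_contra hlt
  have h1 : Nat.card (orbit (stabilizer G a) b) = 1 := by omega
  haveI := (Nat.card_eq_one_iff_unique.1 h1).1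
  have hle : stabilizer G a ≤ stabilizer G b := fun h hh => by
    have := Subsingleton.elim (⟨_, mem_orbit b (⟨h, hh⟩ : stabilizer G a)⟩ :
      orbit (stabilizer G a) b) ⟨b, mem_orbit_self b⟩
    exact congrArg Subtype.val this
  obtain ⟨g, hg⟩ := exists_smul_eq G a b
  have hco := IsPreprimitive.isCoatom_stabilizer_of_isPreprimitive (G := G) a
  have hcob := IsPreprimitive.isCoatom_stabilizer_of_isPreprimitive (G := G) b
  have heq : stabilizer G a = stabilizer G b :=
    (lt_or_eq_of_le hle).resolve_left fun hlt' => hcob.1 (hco.2 _ hlt')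
  have hgN : g ∈ Subgroup.normalizer (stabilizer G a : Set G) := by
    rw [Subgroup.mem_normalizer_iff]
    intro h
    conv_rhs => rw [heq]
    simp only [mem_stabilizer_iff, ← hg, mul_smul, inv_smul_smul, smul_left_cancel_iff]
  rcases lt_or_eq_of_le (Subgroup.le_normalizer (H := stabilizer G a)) with hlt' | he
  · exact not_normal_stabilizer hnp a (Subgroup.normalizer_eq_top_iff.1 (hco.2 _ hlt'))
  · rw [← he] at hgN
    exact hb (hg.symm.trans hgN)

/-- A non-principal constituent of the permutation character of a primitive group is faithful. -/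
theorem eq_one_of_apply_eq [Fintype G] [Fintype Ω] [IsPreprimitive G Ω] [FaithfulSMul G Ω]
    [Nontrivial Ω] (a : Ω)
    {χ : IrrCharacter G} (hm : classInner (fixChar G Ω) (χ : G → ℂ) ≠ 0) (h1 : χ ≠ oneChar G)
    {g : G} (hg : (χ : G → ℂ) g = (χ : G → ℂ) 1) : g = 1 := by
  classical
  let N := charKer (χ : G → ℂ)
  have hgN : g ∈ N := (mem_charKer_iff (isCharacter_coe χ)).2 hg
  let H := stabilizer G a
  by_contra hg1
  have hNH : ¬ N ≤ H := fun hle => hg1 (eq_of_smul_eq_smul fun x : Ω => by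
    obtain ⟨l, rfl⟩ := exists_smul_eq G a x
    have h2 : (l⁻¹ * g * (l⁻¹)⁻¹) • a = a :=
      hle ((instNormalCharKer χ).conj_mem g hgN l⁻¹)
    rw [inv_inv, mul_smul, mul_smul, inv_smul_eq_iff] at h2
    rw [one_smul, h2])
  have hco := IsPreprimitive.isCoatom_stabilizer_of_isPreprimitive (G := G) a
  have htop : N ⊔ H = ⊤ := by
    refine hco.2 _ (lt_of_le_of_ne le_sup_right fun he => hNH ?_)
    show N ≤ stabilizer G a
    rw [he]
    exact le_sup_left
  have horth : ∑ g : G, (χ : G → ℂ) g = 0 := by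
    have h := classInner_irr χ (oneChar G)
    rw [if_neg h1, classInner] at h
    simp only [oneChar_apply, map_one, mul_one, mul_eq_zero, inv_eq_zero, Nat.cast_eq_zero,
      Nat.card_pos.ne', false_or] at h
    exact h
  refine hm ?_
  let _ := Fintype.ofFinite H
  obtain ⟨n, ρ, -, hρ⟩ := χ.2
  rw [← hρ, classInner_fixChar_eq a, trace_avgOp, hρ]
  have hF : ∀ g : G, ∃ h : H, h • a = a ∧ ∃ m ∈ N, g = m * h := fun g => by
    have : g ∈ ((N ⊔ H : Subgroup G) : Set G) := by rw [htop]; trivial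
    rw [Subgroup.normal_mul] at this
    obtain ⟨m, hm, h, hh, rfl⟩ := Set.mem_mul.1 this
    exact ⟨⟨h, hh⟩, hh, m, hm, rfl⟩
  -- count each value `χ h` equally often
  have hcount : (Nat.card H : ℂ) * ∑ g : G, (χ : G → ℂ) g =
      (Nat.card G : ℂ) * ∑ h : H, (χ : G → ℂ) (h : G) := by
    have h2 : ∀ g : G, ∑ h : H, (χ : G → ℂ) (g * h) = ∑ h : H, (χ : G → ℂ) (h : G) := fun g => by
      obtain ⟨h₀, -, m, hm, rfl⟩ := hF g
      rw [Finset.sum_congr rfl fun h _ => by rw [mul_assoc, map_mul_of_mem_charKer hm]]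
      exact Fintype.sum_equiv (Equiv.mulLeft h₀) _ _ fun h => rfl
    calc (Nat.card H : ℂ) * ∑ g : G, (χ : G → ℂ) g
        = ∑ h : H, ∑ g : G, (χ : G → ℂ) (g * h) := by
          have h3 : ∀ h : H, ∑ g : G, (χ : G → ℂ) (g * h) = ∑ g : G, (χ : G → ℂ) g := fun h =>
            Fintype.sum_equiv (Equiv.mulRight (h : G)) _ _ fun g => rfl
          simp only [h3, Finset.sum_const, Finset.card_univ, ← Nat.card_eq_fintype_card,
            nsmul_eq_mul]
      _ = _ := by
          rw [Finset.sum_comm, Finset.sum_congr rfl fun g _ => h2 g, Finset.sum_const,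
            Finset.card_univ, ← Nat.card_eq_fintype_card, nsmul_eq_mul]
  rw [horth, mul_zero, eq_comm, mul_eq_zero] at hcount
  rw [hcount.resolve_left (Nat.cast_ne_zero.2 Nat.card_pos.ne'), mul_zero]

omit [MulAction G Ω] in
/-- Jordan: an element of prime order `p` with a fixed point in a primitive group of degree `2p`. -/
theorem two_pretransitive_of_fixed_point {α : Type w} [Fintype α] [DecidableEq α] {p : ℕ}
    (hp : p.Prime) (hα : Fintype.card α = 2 * p) (G : Subgroup (Equiv.Perm α))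
    (hG : IsPreprimitive G α) {g : Equiv.Perm α} (hg : g ∈ G) (hord : orderOf g = p) {x : α}
    (hx : g x = x) : IsMultiplyPretransitive G α 2 := by
  haveI := Fact.mk hp
  obtain ⟨n, hn⟩ := Equiv.Perm.cycleType_prime_order (hord.symm ▸ hp)
  rw [hord] at hn
  have hsupp : g.support.card = (n + 1) * p := by
    rw [← Equiv.Perm.sum_cycleType, hn, Multiset.sum_replicate, smul_eq_mul]
  have hlt : g.support.card < 2 * p := by
    rw [← hα]
    exact Finset.card_lt_univ_of_notMem (x := x) (by simpa using hx)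
  have hn0 : n = 0 := by
    have := Nat.lt_of_mul_lt_mul_right (hsupp ▸ hlt)
    omega
  subst hn0
  have hcyc : g.IsCycle := by
    rw [← Equiv.Perm.card_cycleType_eq_one, hn, Multiset.card_replicate]
  refine hG.is_two_pretransitive (s := ((g.support : Set α))ᶜ) (n := p - 1) ?_ ?_
    (Equiv.Perm.isPretransitive_of_isCycle_mem hcyc hg)
  · rw [Set.ncard_compl, Set.ncard_coe_finset, hsupp, Nat.card_eq_fintype_card, hα]
    have := hp.two_le
    omega
  · rw [Nat.card_eq_fintype_card, hα]
    have := hp.two_le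
    omega

theorem exists_fixed_point_of_sq_dvd {α : Type w} [Fintype α] [DecidableEq α] {p : ℕ}
    (hp : p.Prime) (hp2 : p ≠ 2) (hα : Fintype.card α = 2 * p) (G : Subgroup (Equiv.Perm α))
    (h2 : p ^ 2 ∣ Nat.card G) (x : α) : ∃ g ∈ G, orderOf g = p ∧ g x = x := by
  haveI := Fact.mk hp
  obtain ⟨E, hE⟩ := Sylow.exists_subgroup_card_pow_prime p h2
  have h3 : 3 ≤ p := by have := hp.two_le; omega
  have hle : Nat.card (orbit E x) ≤ 2 * p := by
    rw [← hα, ← Nat.card_eq_fintype_card]
    exact Nat.card_le_card_of_injective _ Subtype.val_injective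
  have hmul : Nat.card (orbit E x) * Nat.card (stabilizer E x) = p ^ 2 := by
    rw [← hE, Nat.card_congr (orbitEquivQuotientStabilizer E x), ← Subgroup.index,
      Subgroup.index_mul_card]
  have hdvd : p ∣ Nat.card (stabilizer E x) := by
    obtain ⟨i, hi, hci⟩ := (Nat.dvd_prime_pow hp).1 ⟨_, hmul.symm⟩
    rw [hci] at hmul hle
    interval_cases i
    · exact ⟨p, by rw [pow_zero, one_mul] at hmul; rw [hmul]; ring⟩
    · exact ⟨1, by
        rw [pow_one, pow_two] at hmul
        rw [mul_one, Nat.eq_of_mul_eq_mul_left hp.pos hmul]⟩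
    · rw [pow_two] at hle
      nlinarith
  obtain ⟨g, hg⟩ := exists_prime_orderOf_dvd_card' p hdvd
  refine ⟨((g : E) : Equiv.Perm α), (g : E).1.2, ?_, g.2⟩
  rw [← hg, Subgroup.orderOf_coe, Subgroup.orderOf_coe, Subgroup.orderOf_coe]

end CfsgLib.PrimitiveTwoP
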