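import Cfsg.Agent.PrimitiveTwoP.NoRankFour
import Cfsg.Agent.Blocks.OrderP.Principal
import Cfsg.Agent.SmallPRep.Degree
import Cfsg.Agent.S4503
import Cfsg.Agent.S0719
import Cfsg.Agent.Chars.Basic.Values

/-!
# The constituents of the permutation character in degree `2p`

The Galois group fixes the number of trivial constituents on `⟨u⟩`; so one constituent has degree
`p` and the others together have degree `p - 1`.
-/

noncomputable section

namespace CfsgLib.PrimitiveTwoP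

open MulAction Cfsg CfsgLib.Chars CfsgLib.Chars.Apps CfsgLib.Blocks.Orth
open scoped ComplexConjugate

universe u w

variable {G : Type u} [Group G] [Fintype G]

/-- The trivial multiplicity on a cyclic subgroup. -/
theorem exists_trivial_mult {χ : G → ℂ} (hχ : IsCharacter G χ) (P : Subgroup G) [Fintype P] :
    ∃ a : ℕ, ∑ x : P, χ x = (Nat.card P : ℂ) * a := by
  classical
  obtain ⟨c, -, hc⟩ := exists_nat_coeff (isCharacter_restrict hχ P)
  refine ⟨c (oneChar P), ?_⟩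
  rw [← hc, classInner, ← mul_assoc, mul_inv_cancel₀ (Nat.cast_ne_zero.2 Nat.card_pos.ne'), one_mul]
  simp [oneChar_apply]

/-- The norm on an abelian subgroup is at least the degree; inner products are natural numbers. -/
theorem degree_le_norm_restrict {χ ψ : G → ℂ} (hχ : IsCharacter G χ) (hψ : IsCharacter G ψ)
    (P : Subgroup G) [Fintype P] [IsMulCommutative P] :
    ∃ n m : ℕ, charDegree χ ≤ n ∧
      ∑ x : P, Complex.normSq (χ x) = (Nat.card P : ℝ) * n ∧
      ∑ x : P, (χ x * conj (ψ x)).re = (Nat.card P : ℝ) * m := by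
  classical
  obtain ⟨c, hc1, hc⟩ := exists_nat_coeff (isCharacter_restrict hχ P)
  obtain ⟨d, -, hd⟩ := exists_nat_coeff (isCharacter_restrict hψ P)
  have hcl := isClassFunction_of_isCharacter (isCharacter_restrict hχ P)
  refine ⟨∑ θ, c θ * c θ, ∑ θ, c θ * d θ, ?_, ?_, ?_⟩
  · have h1 : charDegree χ = ∑ θ, c θ := by
      have h := congrFun hc1 1
      simp only [Finset.sum_apply, Pi.smul_apply, map_one_eq_one_of_isMulCommutative, smul_eq_mul,
        mul_one, Subgroup.coe_one] at h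
      exact charDegree_eq_of_map_one (by rw [h]; push_cast; rfl)
    rw [h1]
    exact Finset.sum_le_sum fun θ _ => Nat.le_mul_self _
  · have h := classInner_eq_sum hcl (fun x : P => χ x)
    simp only [hc, map_natCast] at h
    rw [classInner, inv_mul_eq_iff_eq_mul₀ (Nat.cast_ne_zero.2 Nat.card_pos.ne')] at h
    simp only [Complex.mul_conj] at h
    apply Complex.ofReal_injective
    push_cast
    exact h
  · have h := classInner_eq_sum hcl (fun x : P => ψ x)
    simp only [hc, hd, map_natCast] at h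
    rw [classInner, inv_mul_eq_iff_eq_mul₀ (Nat.cast_ne_zero.2 Nat.card_pos.ne')] at h
    rw [← Complex.re_sum, h]
    simp

variable {Ω : Type w} [Fintype Ω] [MulAction G Ω]

theorem fixChar_pow_coprime {k : ℕ} (hk : k.Coprime (Nat.card G)) (g : G) :
    fixChar G Ω (g ^ k) = fixChar G Ω g := by
  obtain ⟨l, hl⟩ : ∃ l : ℕ, (g ^ k) ^ l = g :=
    exists_pow_eq_self_of_coprime (Nat.Coprime.coprime_dvd_right (orderOf_dvd_natCard g) hk)
  have hfix : ∀ (n : ℕ) (h : G) (x : Ω), h • x = x → h ^ n • x = x := by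
    intro n h x hx
    induction n with
    | zero => rw [pow_zero, one_smul]
    | succ n ih => rw [pow_succ, mul_smul, hx, ih]
  simp only [fixChar]
  congr 1
  refine Nat.card_congr (Equiv.setCongr (Set.ext fun x => ?_))
  simp only [mem_fixedBy]
  refine ⟨fun h => ?_, hfix k g x⟩
  have := hfix l _ x h
  rwa [hl] at this

theorem classInner_fixChar_powIrr {k : ℕ} (hk : k.Coprime (Nat.card G)) (χ : IrrCharacter G) :
    classInner (fixChar G Ω) (powIrr hk χ : G → ℂ) = classInner (fixChar G Ω) (χ : G → ℂ) := by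
  simp only [classInner, powIrr_apply]
  congr 1
  exact Fintype.sum_equiv (powCoprime hk.symm) _ _ fun g => by
    rw [show powCoprime hk.symm g = g ^ k from rfl, fixChar_pow_coprime hk]

theorem sum_powIrr {k : ℕ} (hk : k.Coprime (Nat.card G)) (χ : IrrCharacter G) (P : Subgroup G)
    [Fintype P] : ∑ x : P, (powIrr hk χ : G → ℂ) x = ∑ x : P, (χ : G → ℂ) x := by
  have hP : (Nat.card P).Coprime k :=
    (Nat.Coprime.coprime_dvd_right (Subgroup.card_subgroup_dvd_card P) hk).symm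
  exact Fintype.sum_equiv (powCoprime hP) _ _ fun x => by rw [powIrr_apply]; rfl

theorem powIrr_oneChar {k : ℕ} (hk : k.Coprime (Nat.card G)) :
    powIrr hk (oneChar G) = oneChar G :=
  Subtype.ext (funext fun g => by rw [powIrr_apply, oneChar_apply, oneChar_apply])

/-- The rank is the sum of squares of the multiplicities. -/
theorem rank_eq_sum_sq [IsPretransitive G Ω] (a : Ω) (m : IrrCharacter G → ℕ)
    (hm : ∀ χ : IrrCharacter G, classInner (fixChar G Ω) (χ : G → ℂ) = m χ) :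
    Nat.card (orbitRel.Quotient (stabilizer G a) Ω) = ∑ χ, m χ * m χ := by
  have h := classInner_fixChar_self (G := G) (Ω := Ω) a
  rw [classInner_eq_sum (isClassFunction_of_isCharacter isCharacter_fixChar)] at h
  simp only [hm, map_natCast] at h
  exact_mod_cast h.symm

/-- The result of the analysis. -/
theorem rank_two_or_three [IsPreprimitive G Ω] [FaithfulSMul G Ω] {p : ℕ} [hp : Fact p.Prime]
    (hp2 : p ≠ 2) (hΩ : Fintype.card Ω = 2 * p) (a : Ω) (hdvd : p ∣ Nat.card G)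
    (hsq : ¬ p ^ 2 ∣ Nat.card G) (hfree : ∀ g : G, orderOf g = p → ∀ x : Ω, g • x ≠ x) :
    Nat.card (orbitRel.Quotient (stabilizer G a) Ω) = 2 ∨
    (Nat.card (orbitRel.Quotient (stabilizer G a) Ω) = 3 ∧ ∃ χ₁ χ₂ : IrrCharacter G,
      (fun g : G => (Nat.card (fixedBy Ω g) : ℂ)) =
        (fun g => 1 + (χ₁ : G → ℂ) g + (χ₂ : G → ℂ) g) ∧
      (χ₁ : G → ℂ) 1 = (p : ℂ) - 1 ∧ (χ₂ : G → ℂ) 1 = p) := by
  classical
  have hpP : p.Prime := hp.out
  have hp3 : 3 ≤ p := by have := hpP.two_le; omega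
  obtain ⟨u, hu⟩ := exists_prime_orderOf_dvd_card' p hdvd
  have hidx : ¬ p ∣ (Subgroup.zpowers u).index := fun h => hsq (by
    rw [← Subgroup.card_mul_index (Subgroup.zpowers u), Nat.card_zpowers, hu, pow_two]
    exact Nat.mul_dvd_mul_left p h)
  have hup : u ^ p = 1 := by rw [← hu]; exact pow_orderOf_eq_one u
  haveI : Nontrivial Ω := Fintype.one_lt_card_iff_nontrivial.1 (by omega)
  have hnp : ¬ (Nat.card Ω).Prime := by
    rw [Nat.card_eq_fintype_card, hΩ]
    exact Nat.not_prime_mul (by norm_num) hpP.ne_one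
  set P := Subgroup.zpowers u
  let _ := Fintype.ofFinite P
  have hcardP : Nat.card P = p := by rw [Nat.card_zpowers, hu]
  -- the multiplicities
  obtain ⟨m, hπ, hm⟩ := exists_nat_coeff (isCharacter_fixChar (G := G) (Ω := Ω))
  choose A hA using fun χ : IrrCharacter G => exists_trivial_mult (isCharacter_coe χ) P
  simp only [hcardP] at hA
  have hm1 : m (oneChar G) = 1 := by
    have h := hm (oneChar G)
    rw [show (oneChar G : G → ℂ) = fun _ => 1 from funext oneChar_apply, classInner_fixChar_one a]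
      at h
    exact_mod_cast h.symm
  have hA1 : A (oneChar G) = 1 := by
    have h := hA (oneChar G)
    simp only [oneChar_apply, Finset.sum_const, Finset.card_univ, nsmul_eq_mul, mul_one,
      ← Nat.card_eq_fintype_card, hcardP] at h
    exact_mod_cast (mul_eq_left₀ (Nat.cast_ne_zero.2 hpP.ne_zero : (p : ℂ) ≠ 0)).1 h.symm
  have hfix0 : ∀ g : G, g ∈ P → g ≠ 1 → fixChar G Ω g = 0 := by
    intro g hg hg1
    have hord : orderOf g = p := by
      have h1 : orderOf g ∣ p := by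
        rw [← hcardP, ← Subgroup.orderOf_mk g hg]
        exact orderOf_dvd_natCard _
      exact (hpP.eq_one_or_self_of_dvd _ h1).resolve_left (mt orderOf_eq_one_iff.1 hg1)
    rw [fixChar, Nat.cast_eq_zero, Nat.card_eq_zero]
    exact Or.inl ⟨fun x => hfree g hord x.1 x.2⟩
  have hdeg : ∑ χ, m χ * charDegree (χ : G → ℂ) = 2 * p := by
    have h := congrFun hπ 1
    have h1 : fixChar G Ω (1 : G) = (2 * p : ℕ) := by
      rw [fixChar_eq_card]; simp [hΩ]
    rw [h1, Finset.sum_apply] at h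
    simp only [Pi.smul_apply, smul_eq_mul, ← coe_charDegree] at h
    exact_mod_cast h.symm
  have hAsum : ∑ χ, m χ * A χ = 2 := by
    have h : ∑ x : P, fixChar G Ω (x : G) = (p : ℂ) * (∑ χ, m χ * A χ : ℕ) := by
      rw [hπ, Nat.cast_sum, Finset.mul_sum]
      simp only [Finset.sum_apply, Pi.smul_apply, smul_eq_mul]
      rw [Finset.sum_comm]
      refine Finset.sum_congr rfl fun χ _ => ?_
      rw [← Finset.mul_sum, hA]; push_cast; ring
    rw [Finset.sum_eq_single (1 : P) (fun x _ hx => hfix0 _ x.2 fun h => hx (Subtype.ext h))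
      (fun h => absurd (Finset.mem_univ _) h)] at h
    have h1 : fixChar G Ω ((1 : P) : G) = (2 * p : ℕ) := by
      rw [fixChar_eq_card]; simp [hΩ]
    rw [h1] at h
    norm_cast at h
    exact (Nat.eq_of_mul_eq_mul_left hpP.pos (h.symm.trans (mul_comm 2 p))).trans rfl
  set U := Finset.univ.erase (oneChar G) with hU
  have hAU : ∑ χ ∈ U, m χ * A χ = 1 := by
    have h := Finset.add_sum_erase Finset.univ (fun χ => m χ * A χ) (Finset.mem_univ (oneChar G))
    simp only [hm1, hA1] at h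
    simp only [hU]
    linarith
  obtain ⟨Φ, hΦU, hΦA⟩ : ∃ Φ ∈ U, m Φ * A Φ ≠ 0 := Finset.exists_ne_zero_of_sum_ne_zero (by omega)
  have hΦ1 : Φ ≠ oneChar G := Finset.ne_of_mem_erase hΦU
  have hΦm : m Φ = 1 ∧ A Φ = 1 ∧ ∀ χ ∈ U, χ ≠ Φ → m χ * A χ = 0 := by
    rw [← Finset.add_sum_erase _ _ hΦU] at hAU
    have h1 : m Φ * A Φ = 1 := by
      have := Nat.pos_of_ne_zero hΦA
      linarith [Nat.zero_le (∑ χ ∈ U.erase Φ, m χ * A χ)]
    refine ⟨(mul_eq_one.1 h1).1, (mul_eq_one.1 h1).2, fun χ hχ hne => ?_⟩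
    have h0 : ∑ χ ∈ U.erase Φ, m χ * A χ = 0 := by linarith
    exact Finset.sum_eq_zero_iff.1 h0 χ (Finset.mem_erase.2 ⟨hne, hχ⟩)
  -- Galois conjugates
  have hmpow : ∀ (k : ℕ) (hk : k.Coprime (Nat.card G)) χ, m (powIrr hk χ) = m χ := fun k hk χ => by
    have h1 := hm (powIrr hk χ)
    rw [classInner_fixChar_powIrr hk χ, hm] at h1
    exact_mod_cast h1.symm
  have hApow : ∀ (k : ℕ) (hk : k.Coprime (Nat.card G)) χ, A (powIrr hk χ) = A χ := fun k hk χ => by
    have h1 := hA (powIrr hk χ)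
    rw [sum_powIrr hk χ P, hA] at h1
    exact_mod_cast mul_left_cancel₀ (Nat.cast_ne_zero.2 hpP.ne_zero) h1.symm
  have h1pow : ∀ (k : ℕ) (hk : k.Coprime (Nat.card G)) χ, χ ≠ oneChar G →
      powIrr hk χ ≠ oneChar G := fun k hk χ h1 h =>
    h1 (powIrr_injective hk (h.trans (powIrr_oneChar hk).symm))
  have hΦpow : ∀ (k : ℕ) (hk : k.Coprime (Nat.card G)), powIrr hk Φ = Φ := fun k hk => by
    by_contra hne
    have := hΦm.2.2 _ (Finset.mem_erase.2 ⟨h1pow k hk Φ hΦ1, Finset.mem_univ _⟩) hne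
    rw [hmpow, hApow, hΦm.1, hΦm.2.1] at this
    omega
  have hconj : ∀ x : P, x ≠ 1 → ∀ y : P, y ≠ 1 → ∃ (k : ℕ) (hk : k.Coprime (Nat.card G)),
      ∀ χ, (powIrr hk χ : G → ℂ) x = (χ : G → ℂ) y := by
    intro x hx y hy
    obtain ⟨i, hi⟩ := (Blocks.OrderP.mem_zpowers_iff_upow hu).1 x.2
    obtain ⟨j, hj⟩ := (Blocks.OrderP.mem_zpowers_iff_upow hu).1 y.2
    have hi0 : i ≠ 0 := fun h => hx (Subtype.ext (by rw [hi, h, Blocks.OrderP.upow_zero hu]; rfl))
    have hj0 : j ≠ 0 := fun h => hy (Subtype.ext (by rw [hj, h, Blocks.OrderP.upow_zero hu]; rfl))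
    obtain ⟨k, hk, hkc⟩ := Blocks.OrderP.exists_coprime_cast hu hidx (div_ne_zero hj0 hi0)
    refine ⟨k, hk, fun χ => ?_⟩
    rw [powIrr_apply, hi, hj, Blocks.OrderP.upow_pow hu, hkc, mul_div_cancel₀ _ hi0]
  let u' : P := ⟨u, Subgroup.mem_zpowers u⟩
  have hu' : u' ≠ 1 := fun h => by
    have h1 : u = 1 := congrArg Subtype.val h
    rw [h1, orderOf_one] at hu
    omega
  have hsumconst : ∀ (χ : IrrCharacter G) (c : ℂ), (∀ x : P, x ≠ 1 → (χ : G → ℂ) x = c) →
      (charDegree (χ : G → ℂ) : ℂ) + ((p : ℂ) - 1) * c = (p : ℂ) * A χ := by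
    intro χ c hc
    rw [← hA, ← Finset.add_sum_erase _ _ (Finset.mem_univ (1 : P)), coe_charDegree,
      Finset.sum_congr rfl fun x hx => hc x (Finset.ne_of_mem_erase hx), Finset.sum_const,
      Finset.card_erase_of_mem (Finset.mem_univ _), Finset.card_univ, ← Nat.card_eq_fintype_card,
      hcardP, nsmul_eq_mul, Nat.cast_sub hpP.one_le, Nat.cast_one]
    rfl
  -- the degree of Φ
  have hΦc : ∀ x : P, x ≠ 1 → (Φ : G → ℂ) x = (Φ : G → ℂ) u := fun x hx => by
    obtain ⟨k, hk, hkx⟩ := hconj u' hu' x hx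
    have := hkx Φ
    rw [hΦpow] at this
    exact this.symm
  have hΦeq := hsumconst Φ _ hΦc
  rw [hΦm.2.1, Nat.cast_one, mul_one] at hΦeq
  obtain ⟨c, hc⟩ := real_of_pow (z := (Φ : G → ℂ) u) (p := p - 1) (by omega)
    (m := (p : ℤ) - charDegree (Φ : G → ℂ))
    (by rw [Nat.cast_sub hpP.one_le]; push_cast; linear_combination hΦeq)
    (isIntegral_apply (isCharacter_coe Φ) u)
  rw [hc] at hΦeq
  have hΦeq' : (charDegree (Φ : G → ℂ) : ℤ) + ((p : ℤ) - 1) * c = p := by
    exact_mod_cast hΦeq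
  have hΦle : charDegree (Φ : G → ℂ) + 1 ≤ 2 * p := by
    rw [← hdeg, ← Finset.add_sum_erase _ _ (Finset.mem_univ (oneChar G)), hm1, one_mul,
      ← Finset.add_sum_erase _ _ hΦU, hΦm.1, one_mul,
      charDegree_eq_of_map_one (χ := (oneChar G : G → ℂ)) (n := 1) (by simp [oneChar_apply])]
    omega
  have hΦpos := charDegree_pos Φ
  have hrest : ∑ χ ∈ U.erase Φ, m χ * charDegree (χ : G → ℂ) + charDegree (Φ : G → ℂ) + 1 = 2 * p := by
    rw [← hdeg, ← Finset.add_sum_erase _ _ (Finset.mem_univ (oneChar G)), hm1, one_mul,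
      ← Finset.add_sum_erase _ _ hΦU, hΦm.1, one_mul,
      charDegree_eq_of_map_one (χ := (oneChar G : G → ℂ)) (n := 1) (by simp [oneChar_apply])]
    omega
  have hrank := rank_eq_sum_sq a m hm
  rw [← Finset.add_sum_erase _ _ (Finset.mem_univ (oneChar G)), hm1,
    ← Finset.add_sum_erase _ _ hΦU, hΦm.1, mul_one] at hrank
  obtain hc' | hc' | hc' : c = 1 ∨ c = 0 ∨ c = -1 := by
    have h1 : c ≤ 1 := by
      by_contra h
      have h2 : ((p : ℤ) - 1) * 2 ≤ ((p : ℤ) - 1) * c := mul_le_mul_of_nonneg_left (by omega) (by omega)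
      omega
    have h2 : -1 ≤ c := by
      by_contra h
      have h3 : ((p : ℤ) - 1) * c ≤ ((p : ℤ) - 1) * (-2) := mul_le_mul_of_nonneg_left (by omega) (by omega)
      omega
    omega
  · -- a linear constituent
    exfalso
    rw [hc', mul_one] at hΦeq'
    have hd1 : charDegree (Φ : G → ℂ) = 1 := by omega
    have hm0 : classInner (fixChar G Ω) (Φ : G → ℂ) ≠ 0 := by rw [hm, hΦm.1]; simp
    have h1 : (Φ : G → ℂ) 1 = 1 := by rw [← coe_charDegree, hd1, Nat.cast_one]
    have h2 : (Φ : G → ℂ) u = 1 := by rw [hc, hc']; simp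
    have h3 := eq_one_of_apply_eq a hm0 hΦ1 (h2.trans h1.symm)
    rw [h3, orderOf_one] at hu
    omega
  swap
  · -- two constituents
    left
    rw [hc'] at hΦeq'
    have h1 : ∑ χ ∈ U.erase Φ, m χ * charDegree (χ : G → ℂ) = 0 := by omega
    have h2 : ∑ χ ∈ U.erase Φ, m χ * m χ = 0 := Finset.sum_eq_zero fun χ hχ => by
      have := Finset.sum_eq_zero_iff.1 h1 χ hχ
      rcases Nat.mul_eq_zero.1 this with h | h
      · simp [h]
      · exact absurd h (charDegree_pos χ).ne'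
    rw [hrank, h2]
    rfl
  -- Φ has degree p
  rw [hc', mul_zero, add_zero] at hΦeq'
  have hΦd : charDegree (Φ : G → ℂ) = p := by exact_mod_cast hΦeq'
  have hΦp : (Φ : G → ℂ) 1 = p := by rw [← coe_charDegree, hΦd]
  have hΦ0 : ∀ x : P, x ≠ 1 → (Φ : G → ℂ) x = 0 := fun x hx => by
    rw [hΦc x hx, hc, hc', Int.cast_zero]
  have hS : ∑ χ ∈ U.erase Φ, m χ * charDegree (χ : G → ℂ) = p - 1 := by omega
  obtain ⟨e, he⟩ : ∃ e, 2 * e + 1 = p := by
    rcases hpP.eq_two_or_odd' with h | ⟨e, he⟩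
    · exact absurd h hp2
    · exact ⟨e, he.symm⟩
  set T := (U.erase Φ).filter fun χ => m χ ≠ 0
  have hTmem : ∀ χ, χ ∈ T ↔ χ ≠ Φ ∧ χ ≠ oneChar G ∧ m χ ≠ 0 := fun χ => by
    simp [T, hU, and_assoc]
  have hA0 : ∀ χ ∈ T, A χ = 0 := fun χ hχ => by
    obtain ⟨hχΦ, hχ1, hχm⟩ := (hTmem χ).1 hχ
    exact (Nat.mul_eq_zero.1 (hΦm.2.2 χ (Finset.mem_erase.2 ⟨hχ1, Finset.mem_univ _⟩) hχΦ)).resolve_left hχm
  -- nontrivial constituents have degree at least e
  have hnn : ∀ N : Subgroup G, N.Normal → Nat.card N ≠ p := by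
    intro N hN hcard
    have hne : N ≠ ⊥ := fun h => by rw [h, Subgroup.card_bot] at hcard; omega
    have hco := IsPreprimitive.isCoatom_stabilizer_of_isPreprimitive (G := G) a
    have hNH : ¬ N ≤ stabilizer G a := fun hle => hne (by
      rw [eq_bot_iff]
      intro g hg
      rw [Subgroup.mem_bot]
      refine eq_of_smul_eq_smul fun x : Ω => ?_
      obtain ⟨l, rfl⟩ := exists_smul_eq G a x
      have h2 : (l⁻¹ * g * (l⁻¹)⁻¹) • a = a := hle (hN.conj_mem g hg l⁻¹)
      rw [inv_inv, mul_smul, mul_smul, inv_smul_eq_iff] at h2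
      rw [one_smul, h2])
    have htop : N ⊔ stabilizer G a = ⊤ :=
      hco.2 _ (lt_of_le_of_ne le_sup_right fun he => hNH (by rw [he]; exact le_sup_left))
    have horb : ∀ y : Ω, y ∈ orbit N a := fun y => by
      obtain ⟨g, rfl⟩ := exists_smul_eq G a y
      have h5 : g ∈ ((N ⊔ stabilizer G a : Subgroup G) : Set G) := by rw [htop]; trivial
      haveI := hN
      rw [Subgroup.normal_mul] at h5
      obtain ⟨n, hn, h, hh, rfl⟩ := Set.mem_mul.1 h5
      exact ⟨⟨n, hn⟩, by rw [mul_smul, show h • a = a from hh]; rfl⟩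
    have hidx2 : Nat.card Ω ∣ Nat.card N := by
      rw [← Nat.card_congr (Equiv.subtypeUnivEquiv horb),
        Nat.card_congr (orbitEquivQuotientStabilizer N a)]
      exact Subgroup.index_dvd_card _
    rw [Nat.card_eq_fintype_card (α := Ω), hΩ, hcard] at hidx2
    have := Nat.le_of_dvd hpP.pos hidx2
    omega
  have hTdeg : ∀ χ ∈ T, e ≤ charDegree (χ : G → ℂ) := fun χ hχ => by
    obtain ⟨-, hχ1, hχm⟩ := (hTmem χ).1 hχ
    have := Cfsg.Agent.S4503.result p hpP hdvd hsq hnn (χ : G → ℂ) (isCharacter_coe χ)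
      fun g hg => eq_one_of_apply_eq a (by rw [hm]; exact_mod_cast hχm) hχ1 hg
    omega
  have hST : ∑ χ ∈ T, m χ * charDegree (χ : G → ℂ) = p - 1 := by
    rw [← hS]
    refine Finset.sum_filter_of_ne fun χ _ h h0 => h (by rw [h0, zero_mul])
  have hrT : ∑ χ ∈ U.erase Φ, m χ * m χ = ∑ χ ∈ T, m χ * m χ :=
    (Finset.sum_filter_of_ne (f := fun χ => m χ * m χ) (p := fun χ => m χ ≠ 0)
      fun χ _ h h0 => h (by simp [h0])).symm
  rw [hrT] at hrank
  have hnorep : ∀ χ ∈ T, ∀ c : ℂ, (∀ x : P, x ≠ 1 → (χ : G → ℂ) x = c) →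
      charDegree (χ : G → ℂ) ≠ e := by
    intro χ hχ c hc hd
    have h := hsumconst χ c hc
    rw [hA0 χ hχ, Nat.cast_zero, mul_zero, hd, ← he] at h
    push_cast at h
    have he0 : (e : ℂ) ≠ 0 := Nat.cast_ne_zero.2 (by omega)
    have h2 : c = -1 / 2 := by
      field_simp
      refine mul_left_cancel₀ he0 ?_
      linear_combination h
    have hint := isIntegral_apply (isCharacter_coe χ) u
    rw [show (χ : G → ℂ) u = c from hc u' hu'] at hint
    obtain ⟨b, hb⟩ := real_of_pow (p := 2) (m := -1) two_ne_zero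
      (by rw [h2]; push_cast; ring) hint
    rw [hb] at h2
    field_simp at h2
    have h3 : b * 2 = -1 := by exact_mod_cast h2
    omega
  have hpow_T : ∀ (k : ℕ) (hk : k.Coprime (Nat.card G)), ∀ χ ∈ T, powIrr hk χ ∈ T := fun k hk χ hχ => by
    obtain ⟨hχΦ, hχ1, hχm⟩ := (hTmem χ).1 hχ
    exact (hTmem _).2 ⟨fun h => hχΦ (powIrr_injective hk (h.trans (hΦpow k hk).symm)),
      h1pow k hk χ hχ1, by rwa [hmpow]⟩
  have hTne : T.Nonempty := by
    rw [Finset.nonempty_iff_ne_empty]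
    intro h
    rw [h, Finset.sum_empty] at hST
    omega
  obtain ⟨Ψ, hΨ⟩ := hTne
  have hΨm : m Ψ ≠ 0 := ((hTmem Ψ).1 hΨ).2.2
  rcases (T.erase Ψ).eq_empty_or_nonempty with hT1 | ⟨Ψ', hΨ'⟩
  · -- one further constituent
    have hT : T = {Ψ} := by rw [← Finset.insert_erase hΨ, hT1, insert_empty_eq]
    rw [hT, Finset.sum_singleton] at hST
    rw [hT, Finset.sum_singleton] at hrank
    rcases Nat.lt_or_ge (m Ψ) 2 with h | h
    · have hΨ1 : m Ψ = 1 := by omega
      rw [hΨ1, one_mul] at hST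
      refine Or.inr ⟨by rw [hrank, hΨ1]; rfl, Ψ, Φ, ?_, ?_, hΦp⟩
      · change fixChar G Ω = _
        rw [hπ]
        funext g
        rw [Finset.sum_apply, ← Finset.add_sum_erase _ _ (Finset.mem_univ (oneChar G)),
          ← Finset.add_sum_erase _ _ hΦU,
          ← Finset.sum_filter_of_ne (s := U.erase Φ) (p := fun χ => m χ ≠ 0)
            (fun χ _ h h0 => h (by simp [h0]))]
        change _ + (_ + ∑ χ ∈ T, _) = _
        rw [hT, Finset.sum_singleton]
        simp only [Pi.smul_apply, smul_eq_mul, hm1, hΦm.1, hΨ1, Nat.cast_one, one_mul,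
          oneChar_apply]
        ring
      · rw [← coe_charDegree, hST, Nat.cast_sub hpP.one_le, Nat.cast_one]
    · exfalso
      have hd : charDegree (Ψ : G → ℂ) = e := by
        have := hTdeg Ψ hΨ
        nlinarith [Nat.mul_le_mul h (le_refl (charDegree (Ψ : G → ℂ)))]
      refine hnorep Ψ hΨ ((Ψ : G → ℂ) u) (fun x hx => ?_) hd
      obtain ⟨k, hk, hkx⟩ := hconj u' hu' x hx
      have h1 := hpow_T k hk Ψ hΨ
      rw [hT, Finset.mem_singleton] at h1
      have := hkx Ψ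
      rw [h1] at this
      exact this.symm
  -- two constituents of degree e
  exfalso
  obtain ⟨hne, hΨ'T⟩ := Finset.mem_erase.1 hΨ'
  have hΨ'm : m Ψ' ≠ 0 := ((hTmem Ψ').1 hΨ'T).2.2
  have hdΨ := hTdeg Ψ hΨ
  have hdΨ' := hTdeg Ψ' hΨ'T
  have he0 : 1 ≤ e := by omega
  rw [← Finset.add_sum_erase _ _ hΨ, ← Finset.add_sum_erase _ _ hΨ'] at hST hrank
  have hmulΨ : m Ψ * e ≤ m Ψ * charDegree (Ψ : G → ℂ) := Nat.mul_le_mul_left _ hdΨ
  have hmulΨ' : m Ψ' * e ≤ m Ψ' * charDegree (Ψ' : G → ℂ) := Nat.mul_le_mul_left _ hdΨ'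
  have hmΨ : m Ψ = 1 := by
    by_contra h
    have := Nat.mul_le_mul_right e (show 2 ≤ m Ψ by omega)
    have := Nat.mul_le_mul_right e (show 1 ≤ m Ψ' by omega)
    omega
  have hmΨ' : m Ψ' = 1 := by
    by_contra h
    have := Nat.mul_le_mul_right e (show 2 ≤ m Ψ' by omega)
    have := Nat.mul_le_mul_right e (show 1 ≤ m Ψ by omega)
    omega
  rw [hmΨ, hmΨ', one_mul, one_mul] at hST
  rw [hmΨ, hmΨ', mul_one] at hrank
  have hdd : charDegree (Ψ : G → ℂ) = e ∧ charDegree (Ψ' : G → ℂ) = e := by omega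
  have hT2 : ∀ χ ∈ T, χ = Ψ ∨ χ = Ψ' := by
    intro χ hχ
    by_contra h
    push Not at h
    have h0 : ∑ χ ∈ (T.erase Ψ).erase Ψ', m χ * charDegree (χ : G → ℂ) = 0 := by omega
    rcases Nat.mul_eq_zero.1 (Finset.sum_eq_zero_iff.1 h0 χ
      (Finset.mem_erase.2 ⟨h.2, Finset.mem_erase.2 ⟨h.1, hχ⟩⟩)) with h' | h'
    · exact ((hTmem χ).1 hχ).2.2 h'
    · exact (charDegree_pos χ).ne' h'
  have hr4 : Nat.card (orbitRel.Quotient (stabilizer G a) Ω) = 4 := by
    have h0 : ∑ χ ∈ (T.erase Ψ).erase Ψ', m χ * m χ = 0 := Finset.sum_eq_zero fun χ hχ => by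
      exfalso
      obtain ⟨h1, h2⟩ := Finset.mem_erase.1 hχ
      obtain ⟨h3, h4⟩ := Finset.mem_erase.1 h2
      exact (hT2 χ h4).elim h3 h1
    rw [hrank, h0]
    rfl
  set V := (Ψ : G → ℂ) u
  set W := (Ψ' : G → ℂ) u
  -- the values on P
  have hval : ∀ x : P, x ≠ 1 → ((Ψ : G → ℂ) x = V ∧ (Ψ' : G → ℂ) x = W) ∨
      ((Ψ : G → ℂ) x = W ∧ (Ψ' : G → ℂ) x = V) := fun x hx => by
    obtain ⟨k, hk, hkx⟩ := hconj u' hu' x hx
    have h1 := hkx Ψ
    have h2 := hkx Ψ'
    rcases hT2 _ (hpow_T k hk Ψ hΨ) with e1 | e1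
    · rcases hT2 _ (hpow_T k hk Ψ' hΨ'T) with e2 | e2
      · exact absurd (powIrr_injective hk (e1.trans e2.symm)) hne.symm
      · rw [e1] at h1; rw [e2] at h2
        exact Or.inl ⟨h1.symm, h2.symm⟩
    · rcases hT2 _ (hpow_T k hk Ψ' hΨ'T) with e2 | e2
      · rw [e1] at h1; rw [e2] at h2
        exact Or.inr ⟨h1.symm, h2.symm⟩
      · exact absurd (powIrr_injective hk (e1.trans e2.symm)) hne.symm
  have hmc : ∀ χ : IrrCharacter G, classInner (fixChar G Ω) (χ : G → ℂ) =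
      if χ ∈ ({oneChar G, Φ, Ψ, Ψ'} : Set (IrrCharacter G)) then 1 else 0 := by
    intro χ
    rw [hm]
    split_ifs with h
    · rcases h with rfl | rfl | rfl | rfl <;> simp [hm1, hΦm.1, hmΨ, hmΨ']
    · simp only [Set.mem_insert_iff, Set.mem_singleton_iff, not_or] at h
      rw [Nat.cast_eq_zero]
      by_contra h0
      rcases hT2 χ ((hTmem χ).2 ⟨h.2.1, h.1, h0⟩) with e1 | e1
      · exact h.2.2.1 e1
      · exact h.2.2.2 e1
  have hπ' : ∀ g : G, fixChar G Ω g = 1 + (Φ : G → ℂ) g + (Ψ : G → ℂ) g + (Ψ' : G → ℂ) g := by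
    intro g
    rw [congrFun hπ g, Finset.sum_apply, ← Finset.add_sum_erase _ _ (Finset.mem_univ (oneChar G)),
      ← Finset.add_sum_erase _ _ hΦU,
      ← Finset.sum_filter_of_ne (s := U.erase Φ) (p := fun χ => m χ ≠ 0)
        (fun χ _ h h0 => h (by simp [h0]))]
    change _ + (_ + ∑ χ ∈ T, _) = _
    have hTeq : T = {Ψ, Ψ'} := by
      ext χ
      rw [Finset.mem_insert, Finset.mem_singleton]
      exact ⟨hT2 χ, fun h => h.elim (fun h => h ▸ hΨ) (fun h => h ▸ hΨ'T)⟩
    rw [hTeq, Finset.sum_pair hne.symm]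
    simp only [Pi.smul_apply, smul_eq_mul, hm1, hΦm.1, hmΨ, hmΨ', Nat.cast_one, one_mul,
      oneChar_apply]
    ring
  have hsum1 : ∀ x : P, x ≠ 1 → (Ψ : G → ℂ) x + (Ψ' : G → ℂ) x = -1 := fun x hx => by
    have h := hπ' x
    rw [hfix0 _ x.2 fun h => hx (Subtype.ext h), hΦ0 x hx] at h
    linear_combination -h
  have hVW : V + W = -1 := hsum1 u' hu'
  -- the norms on P
  have hnorm : Complex.normSq (V - W) = p := by
    haveI : IsCyclic P := Subgroup.isCyclic_zpowers u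
    haveI : IsMulCommutative P := inferInstance
    obtain ⟨n, n₂, hn, hn1, hn2⟩ :=
      degree_le_norm_restrict (isCharacter_coe Ψ) (isCharacter_coe Ψ') P
    obtain ⟨n', -, hn', hn1', -⟩ :=
      degree_le_norm_restrict (isCharacter_coe Ψ') (isCharacter_coe Ψ) P
    rw [hdd.1] at hn; rw [hdd.2] at hn'
    rw [hcardP] at hn1 hn1' hn2
    have hΨ1 : (Ψ : G → ℂ) ((1 : P) : G) = e := by rw [← hdd.1, coe_charDegree]; rfl
    have hΨ'1 : (Ψ' : G → ℂ) ((1 : P) : G) = e := by rw [← hdd.2, coe_charDegree]; rfl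
    have hall : ∑ x : P, Complex.normSq ((Ψ : G → ℂ) x + (Ψ' : G → ℂ) x) = (p : ℝ) * (2 * e) := by
      rw [← Finset.add_sum_erase _ _ (Finset.mem_univ (1 : P)), hΨ1, hΨ'1,
        Finset.sum_congr rfl fun x hx => by rw [hsum1 x (Finset.ne_of_mem_erase hx)],
        Finset.sum_const, Finset.card_erase_of_mem (Finset.mem_univ _), Finset.card_univ,
        ← Nat.card_eq_fintype_card, hcardP, show (e : ℂ) + e = ((2 * e : ℕ) : ℂ) by push_cast; ring,
        Complex.normSq_natCast, show p - 1 = 2 * e by omega, ← he]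
      simp
      ring
    simp only [Complex.normSq_add, Finset.sum_add_distrib, ← Finset.mul_sum, hn1, hn1', hn2] at hall
    have h3 : n + n' + 2 * n₂ = 2 * e := by
      have h4 : (p : ℝ) * ((n + n' + 2 * n₂ : ℕ) : ℝ) = (p : ℝ) * ((2 * e : ℕ) : ℝ) := by
        push_cast; linear_combination hall
      exact_mod_cast mul_left_cancel₀ (Nat.cast_ne_zero.2 hpP.ne_zero) h4
    have hne' : n = e := by omega
    have hne'' : n' = e := by omega
    rw [hne'] at hn1
    rw [hne''] at hn1'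
    have h5 : ∑ x : P, (Complex.normSq ((Ψ : G → ℂ) x) + Complex.normSq ((Ψ' : G → ℂ) x)) =
        2 * (e : ℝ) ^ 2 + (2 * (e : ℝ)) * (Complex.normSq V + Complex.normSq W) := by
      rw [← Finset.add_sum_erase _ _ (Finset.mem_univ (1 : P)), hΨ1, hΨ'1,
        Finset.sum_congr rfl fun (x : P) hx => show Complex.normSq ((Ψ : G → ℂ) x) +
            Complex.normSq ((Ψ' : G → ℂ) x) = Complex.normSq V + Complex.normSq W by
          rcases hval x (Finset.ne_of_mem_erase hx) with ⟨e1, e2⟩ | ⟨e1, e2⟩ <;> rw [e1, e2]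
          ring,
        Finset.sum_const, Finset.card_erase_of_mem (Finset.mem_univ _), Finset.card_univ,
        ← Nat.card_eq_fintype_card, hcardP, show p - 1 = 2 * e by omega, nsmul_eq_mul,
        Complex.normSq_natCast]
      push_cast
      ring
    rw [Finset.sum_add_distrib, hn1, hn1'] at h5
    have hpar : Complex.normSq (V + W) + Complex.normSq (V - W) =
        2 * (Complex.normSq V + Complex.normSq W) := by
      rw [Complex.normSq_add, Complex.normSq_sub]; ring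
    rw [hVW, Complex.normSq_neg, map_one] at hpar
    have hpn : (p : ℝ) = 2 * (e : ℝ) + 1 := by rw [← he]; push_cast; ring
    have hn0 : (e : ℝ) ≠ 0 := Nat.cast_ne_zero.2 (by omega)
    refine mul_left_cancel₀ hn0 ?_
    rw [hpn] at h5 ⊢
    linear_combination (e : ℝ) * hpar - h5
  -- a second element
  obtain ⟨w, hw, hwV⟩ : ∃ w : P, w ≠ 1 ∧ (Ψ : G → ℂ) w = W ∧ (Ψ' : G → ℂ) w = V := by
    by_contra hno
    push Not at hno
    refine hnorep Ψ hΨ V (fun x hx => ?_) hdd.1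
    rcases hval x hx with h | h
    · exact h.1
    · exact absurd h.2 (hno x hx h.1)
  have hP : ∀ x : P, x ≠ 1 → ∀ y : Ω, (x : G)⁻¹ • y ≠ y := fun x hx y hy => by
    rw [inv_smul_eq_iff] at hy
    have h0 := hfix0 (x : G) x.2 fun h => hx (Subtype.ext h)
    rw [fixChar, Nat.cast_eq_zero, Nat.card_eq_zero] at h0
    rcases h0 with h0 | h0
    · exact h0.elim ⟨y, hy.symm⟩
    · exact not_finite (fixedBy Ω (x : G))
  refine false_of_two_small he hΩ a hr4 (u := u) (v₁ := u⁻¹) (v₂ := (w : G)⁻¹) hup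
    (hfree u hu) (fun y => ⟨hP u' hu' y, hP w hw y⟩) (Commute.refl u).inv_right ?_
    ⟨fun h => ((hTmem Ψ).1 hΨ).1 h.symm, fun h => ((hTmem Ψ').1 hΨ'T).1 h.symm, hne.symm⟩
    ⟨hΦ1, ((hTmem Ψ).1 hΨ).2.1, ((hTmem Ψ').1 hΨ'T).2.1⟩ hmc hΦp
    (by rw [← coe_charDegree, hdd.1]) (by rw [← coe_charDegree, hdd.2])
    ⟨by rw [inv_inv]; exact hΦ0 u' hu', by rw [inv_inv]; exact hΦ0 w hw⟩
    (A := V) (B := W) ⟨by rw [inv_inv], by rw [inv_inv]⟩
    ⟨by rw [inv_inv]; exact hwV.1, by rw [inv_inv]; exact hwV.2⟩ hVW hnorm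
  obtain ⟨i, hi⟩ := Subgroup.mem_zpowers_iff.1 w.2
  rw [← hi]
  exact ((Commute.refl u).zpow_right i).inv_right

end CfsgLib.PrimitiveTwoP
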