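import Cfsg.Agent.PrimitiveTwoP.OrbitalTrace

/-!
# A primitive group of degree `2p` has no two constituents of degree `(p - 1) / 2`

For a suborbit of length `k` with eigenvalues `b, a, a'` the traces at `v₁` and `v₂` give two
integers `x, y ≤ 2` with `k = e (x + y) - b` and `4 b (b + 1) = e (4 (x + y) - (x+y)² - (x-y)²)`.
-/

noncomputable section

namespace CfsgLib.PrimitiveTwoP

open MulAction Cfsg CfsgLib.Chars CfsgLib.Chars.Apps
open scoped ComplexConjugate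

universe u w

theorem orbit_arith {p e k x y : ℕ} (hp : p.Prime) (he : 2 * e + 1 = p) {b : ℤ} (hx : x ≤ 2)
    (hy : y ≤ 2) (hk : 2 ≤ k) (h1 : (k : ℤ) = (e : ℤ) * (x + y) - b)
    (h2 : 4 * b * (b + 1) = (e : ℤ) * (4 * ((x : ℤ) + y) - ((x : ℤ) + y) ^ 2 - ((x : ℤ) - y) ^ 2)) :
    2 ≤ x + y := by
  have hsq : 2 * b * (b + 1) = (e : ℤ) → False := fun h => by
    have h3 : (p : ℤ) = (2 * b + 1) * (2 * b + 1) := by rw [← he]; push_cast; linarith
    have h4 : p = (2 * b + 1).natAbs * (2 * b + 1).natAbs := by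
      rw [← Int.natAbs_mul, ← h3, Int.natAbs_natCast]
    rcases (Nat.prime_mul_iff.1 (h4 ▸ hp)) with ⟨h5, h6⟩ | ⟨h5, h6⟩ <;>
      · rw [h6] at h5; exact Nat.not_prime_one h5
  interval_cases x <;> interval_cases y <;> first | omega | skip
  all_goals norm_num at h1 h2
  · rcases h2 with h | h <;> omega
  · exact (hsq (by linarith)).elim
  · exact (hsq (by linarith)).elim

variable {G : Type u} [Group G] [Fintype G] {Ω : Type w} [Fintype Ω] [MulAction G Ω]

theorem real_of_pow {z : ℂ} {m : ℤ} {p : ℕ} (hp : p ≠ 0) (h : (p : ℂ) * z = m)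
    (hz : IsIntegral ℤ z) : ∃ b : ℤ, z = b := by
  have hq : z = (((m : ℚ) / p : ℚ) : ℂ) := by
    push_cast
    rw [eq_div_iff (Nat.cast_ne_zero.2 hp), mul_comm]
    exact h
  rw [hq] at hz ⊢
  rw [show (((m : ℚ) / p : ℚ) : ℂ) = algebraMap ℚ ℂ ((m : ℚ) / p) from rfl,
    isIntegral_algebraMap_iff (algebraMap ℚ ℂ).injective] at hz
  obtain ⟨b, hb⟩ := (IsIntegrallyClosed.isIntegral_iff (R := ℤ)).1 hz
  exact ⟨b, by rw [← hb]; simp⟩

theorem dvd_card_moved [IsPretransitive G Ω] (a : Ω) {p : ℕ} [hp : Fact p.Prime] {u v : G}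
    (huv : Commute u v) (hup : u ^ p = 1) (hu : ∀ x : Ω, u • x ≠ x) {z : G → ℤ}
    (hz : IsBiInv (stabilizer G a) z) :
    p ∣ Nat.card {c : G ⧸ stabilizer G a // z (c.out⁻¹ * v * c.out) ≠ 0} := by
  classical
  set H := stabilizer G a
  have hF : ∀ g : G, z ((QuotientGroup.mk g : G ⧸ H).out⁻¹ * v * (QuotientGroup.mk g : G ⧸ H).out) =
      z (g⁻¹ * v * g) := fun g => by
    obtain ⟨⟨d, hd⟩, he⟩ := QuotientGroup.mk_out_eq_mul H g
    rw [he, show (g * d)⁻¹ * v * (g * d) = d⁻¹ * ((g⁻¹ * v * g) * d) by group,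
      (hz _ (inv_mem hd) _).1, (hz d hd _).2]
  let T := {c : G ⧸ H // z (c.out⁻¹ * v * c.out) ≠ 0}
  have hinv : ∀ c : T, z ((u • c.1).out⁻¹ * v * (u • c.1).out) ≠ 0 := fun c => by
    have e : u • c.1 = (QuotientGroup.mk (u * c.1.out) : G ⧸ H) := by
      conv_lhs => rw [← QuotientGroup.out_eq' c.1]
      rfl
    rw [e, hF, show (u * c.1.out)⁻¹ * v * (u * c.1.out) = c.1.out⁻¹ * (u⁻¹ * (v * u)) * c.1.out by
      group, ← huv.eq, inv_mul_cancel_left]
    exact c.2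
  let σ : Function.End T := fun c => ⟨u • c.1, hinv c⟩
  have hpow : ∀ n, ∀ c : T, ((σ ^ n) c).1 = u ^ n • c.1 := by
    intro n
    induction n with
    | zero => intro c; rw [pow_zero, pow_zero, one_smul]; rfl
    | succ n ih =>
      intro c
      rw [pow_succ', pow_succ', mul_smul, ← ih c]
      rfl
  have h := Equiv.Perm.card_fixedPoints_modEq (p := p) (n := 1) (f := σ)
    (funext fun c => Subtype.ext (by rw [pow_one, hpow, hup, one_smul]; rfl))
  have h0 : Fintype.card σ.fixedPoints = 0 := by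
    rw [Fintype.card_eq_zero_iff]
    refine ⟨fun c => ?_⟩
    have hc : u • c.1.1 = c.1.1 := congrArg Subtype.val c.2
    refine hu (c.1.1.out • a) ?_
    have e : u • c.1.1 = (QuotientGroup.mk (u * c.1.1.out) : G ⧸ H) := by
      conv_lhs => rw [← QuotientGroup.out_eq' c.1.1]
      rfl
    rw [e, eq_comm, ← QuotientGroup.out_eq' c.1.1, QuotientGroup.eq] at hc
    rw [QuotientGroup.out_eq'] at hc
    have hc' : (c.1.1.out⁻¹ * (u * c.1.1.out)) • a = a := hc
    rwa [mul_smul, mul_smul, inv_smul_eq_iff] at hc'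
  rw [h0] at h
  rw [Nat.card_eq_fintype_card]
  exact (Nat.modEq_zero_iff_dvd).1 h

set_option maxHeartbeats 400000 in
/-- A one-parameter family: the numbers of one suborbit. -/
theorem exists_orbit_data [IsPreprimitive G Ω] [FaithfulSMul G Ω] {p e : ℕ} [hp : Fact p.Prime]
    (he : 2 * e + 1 = p) (hΩ : Fintype.card Ω = 2 * p) (a : Ω) {u v₁ v₂ : G} (hup : u ^ p = 1)
    (hu : ∀ x : Ω, u • x ≠ x) (hc₁ : Commute u v₁) (hc₂ : Commute u v₂)
    {Φ Ψ Ψ' : IrrCharacter G} {A B : ℂ} (hd : Φ ≠ Ψ ∧ Φ ≠ Ψ' ∧ Ψ ≠ Ψ')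
    (h1 : Φ ≠ oneChar G ∧ Ψ ≠ oneChar G ∧ Ψ' ≠ oneChar G)
    (hm : ∀ χ : IrrCharacter G, classInner (fixChar G Ω) (χ : G → ℂ) =
      if χ ∈ ({oneChar G, Φ, Ψ, Ψ'} : Set (IrrCharacter G)) then 1 else 0)
    (hΦ : (Φ : G → ℂ) 1 = p) (hΨ : (Ψ : G → ℂ) 1 = e) (hΨ' : (Ψ' : G → ℂ) 1 = e)
    (hΦv : (Φ : G → ℂ) v₁⁻¹ = 0 ∧ (Φ : G → ℂ) v₂⁻¹ = 0)
    (hv₁ : (Ψ : G → ℂ) v₁⁻¹ = A ∧ (Ψ' : G → ℂ) v₁⁻¹ = B)
    (hv₂ : (Ψ : G → ℂ) v₂⁻¹ = B ∧ (Ψ' : G → ℂ) v₂⁻¹ = A)
    (hAB : A + B = -1) (hAB' : Complex.normSq (A - B) = p)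
    (q : orbitRel.Quotient (stabilizer G a) Ω) (hq : q ≠ Quotient.mk _ a) :
    ∃ x y : ℕ, 2 ≤ x + y ∧
      Nat.card {c : G ⧸ stabilizer G a //
        Quotient.mk (orbitRel (stabilizer G a) Ω) ((c.out⁻¹ * v₁ * c.out) • a) = q} = p * x ∧
      Nat.card {c : G ⧸ stabilizer G a //
        Quotient.mk (orbitRel (stabilizer G a) Ω) ((c.out⁻¹ * v₂ * c.out) • a) = q} = p * y := by
  classical
  have hpP : p.Prime := hp.out
  set S : Set Ω := {w | Quotient.mk (orbitRel (stabilizer G a) Ω) w = q}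
  have hmem : ∀ w, w ∈ S ↔ Quotient.mk (orbitRel (stabilizer G a) Ω) w = q := fun w => Iff.rfl
  set z := pointInd (G := G) a S with hz_def
  have hz : IsBiInv (stabilizer G a) z := isBiInv_pointInd a fun h hh w => by
    rw [hmem, hmem]
    have e : Quotient.mk (orbitRel (stabilizer G a) Ω) (h • w) = Quotient.mk (orbitRel (stabilizer G a) Ω) w :=
      Quotient.sound (mem_orbit w (⟨h, hh⟩ : (stabilizer G a)))
    rw [e]
  set f : G → ℂ := fun g => (z g : ℂ) with hf_def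
  set ft : G → ℂ := fun g => (z g⁻¹ : ℂ) with hft_def
  have hf : IsBiInv (stabilizer G a) f := fun h hh g =>
    ⟨congrArg Int.cast (hz h hh g).1, congrArg Int.cast (hz h hh g).2⟩
  have hft : IsBiInv (stabilizer G a) ft := fun h hh g =>
    ⟨by simp only [hft_def, mul_inv_rev]; rw [(hz _ (inv_mem hh) _).2],
      by simp only [hft_def, mul_inv_rev]; rw [(hz _ (inv_mem hh) _).1]⟩
  set k := Nat.card S
  have hk2 : 2 ≤ k := by
    obtain ⟨b, hb⟩ := Quotient.exists_rep q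
    have hb' : b ≠ a := fun h => hq (by rw [← hb, h])
    refine (two_le_card_orbit (G := G) (a := a) ?_ hb').trans (le_of_eq ?_)
    · rw [Nat.card_eq_fintype_card, hΩ]
      exact Nat.not_prime_mul (by norm_num) hpP.ne_one
    · exact Nat.card_congr (Equiv.setCongr (Set.ext fun w => by
        rw [hmem, ← hb, Quotient.eq, orbitRel_apply]))
  have hsum : ∀ F : IrrCharacter G → ℂ, (∀ χ : IrrCharacter G, classInner (fixChar G Ω) (χ : G → ℂ) = 0 → F χ = 0) →
      ∑ χ, F χ = F (oneChar G) + F Φ + F Ψ + F Ψ' := by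
    intro F hF
    rw [← Finset.sum_subset (Finset.subset_univ ({oneChar G, Φ, Ψ, Ψ'} : Finset (IrrCharacter G)))
      fun χ _ hχ => hF χ ?_]
    · rw [Finset.sum_insert (by simp [h1.1.symm, h1.2.1.symm, h1.2.2.symm]),
        Finset.sum_insert (by simp [hd.1, hd.2.1]), Finset.sum_pair hd.2.2]
      ring
    · rw [hm, if_neg]
      simpa using hχ
  have hm1 : ∀ χ ∈ ({oneChar G, Φ, Ψ, Ψ'} : Set (IrrCharacter G)),
      classInner (fixChar G Ω) (χ : G → ℂ) = 1 := fun χ hχ => by rw [hm, if_pos hχ]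
  have hG : (Nat.card G : ℂ) = (Nat.card (stabilizer G a) : ℂ) * (2 * (p : ℂ)) := by
    rw [← card_stabilizer_mul (G := G) a, hΩ]; push_cast; ring
  -- the regular character
  have hreg : ∀ F : G → ℂ, IsBiInv (stabilizer G a) F → eig (stabilizer G a) F (oneChar G) + (p : ℂ) * eig (stabilizer G a) F Φ +
      (e : ℂ) * eig (stabilizer G a) F Ψ + (e : ℂ) * eig (stabilizer G a) F Ψ' = 2 * (p : ℂ) * F 1 := by
    intro F hF
    have h := sum_map_one_mul_heckeTrace F (stabilizer G a)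
    change ∑ χ : IrrCharacter G, (χ : G → ℂ) 1 * eig (stabilizer G a) F χ = _ at h
    rw [hsum _ fun χ hχ => by rw [eig_eq_zero a hχ hF, mul_zero], oneChar_apply, one_mul, hΦ, hΨ,
      hΨ', hG, ← mul_assoc (Nat.card (stabilizer G a) : ℂ)⁻¹, ← mul_assoc (Nat.card (stabilizer G a) : ℂ)⁻¹,
      inv_mul_cancel₀ card_ne_zeroH, one_mul] at h
    exact h
  have hone : eig (stabilizer G a) f (oneChar G) = k := by
    simp only [eig, hf_def, oneChar_apply, mul_one, hz_def, sum_pointInd]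
    rw [← mul_assoc, inv_mul_cancel₀ card_ne_zeroH, one_mul]
  have hf1 : f 1 = 0 := by
    have : ¬ (1 : G) • a ∈ S := by rw [one_smul, hmem]; exact fun h => hq h.symm
    rw [one_smul] at this
    simp [hf_def, hz_def, pointInd, this]
  -- the trace of the square
  have hu1 : convH (stabilizer G a) f ft 1 = k := by
    refine mul_left_cancel₀ (card_ne_zeroH (H := stabilizer G a)) ?_
    rw [← sum_pointInd (G := G) a S, ← hz_def, sum_eq_card_mul_finsum (H := stabilizer G a)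
      (F := fun g => (z g : ℂ)) fun g h hh => by rw [(hz h hh g).2]]
    congr 1
    refine finsum_congr fun c => ?_
    simp only [hft_def, hf_def, mul_one, inv_inv, hz_def, pointInd]
    split_ifs <;> simp
  have hsq : ∀ χ ∈ ({oneChar G, Φ, Ψ, Ψ'} : Set (IrrCharacter G)),
      eig (stabilizer G a) (convH (stabilizer G a) f ft) χ = (Complex.normSq (eig (stabilizer G a) f χ) : ℂ) := fun χ hχ => by
    rw [eig_convH a (hm1 χ hχ) hf hft, hft_def, eig_inv, ← hf_def, Complex.mul_conj]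
  have E1 := hreg f hf
  rw [hone, hf1, mul_zero] at E1
  have E2 := hreg _ (hf.convH hft)
  rw [hu1, hsq _ (by simp), hsq _ (by simp), hsq _ (by simp), hsq _ (by simp), hone,
    Complex.normSq_natCast] at E2
  -- the counts
  have hN : ∀ v : G, Commute u v → ∃ x : ℕ, x ≤ 2 ∧
      Nat.card {c : G ⧸ (stabilizer G a) // Quotient.mk (orbitRel (stabilizer G a) Ω) ((c.out⁻¹ * v * c.out) • a) = q} = p * x ∧
      ∑ χ : IrrCharacter G, (χ : G → ℂ) v⁻¹ * eig (stabilizer G a) f χ = ((p * x : ℕ) : ℂ) := by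
    intro v hv
    obtain ⟨x, hx⟩ := dvd_card_moved a hv hup hu hz
    have hset : Nat.card {c : G ⧸ (stabilizer G a) // Quotient.mk (orbitRel (stabilizer G a) Ω) ((c.out⁻¹ * v * c.out) • a) = q} =
        p * x := by
      rw [← hx]
      refine Nat.card_congr (Equiv.subtypeEquivRight fun c => ?_)
      simp only [hz_def, pointInd]
      by_cases h : (c.out⁻¹ * v * c.out) • a ∈ S
      · simp [h, (hmem _).1 h]
      · simp [h, mt (hmem _).2 h]
    refine ⟨x, ?_, hset, ?_⟩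
    · refine Nat.le_of_mul_le_mul_left ?_ hpP.pos
      rw [← hset, mul_comm p 2, ← hΩ, ← Nat.card_eq_fintype_card (α := Ω),
        ← index_stabilizer_of_transitive G a, Subgroup.index]
      exact Nat.card_le_card_of_injective _ Subtype.val_injective
    · rw [sum_mul_irr_eq, sum_eq_card_mul_finsum (H := stabilizer G a)
        (F := fun g => f (g⁻¹ * v * g)) fun g h hh => by
          rw [show (g * h)⁻¹ * v * (g * h) = h⁻¹ * ((g⁻¹ * v * g) * h) by group,
            (hf _ (inv_mem hh) _).1, (hf h hh _).2],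
        ← mul_assoc, inv_mul_cancel₀ card_ne_zeroH, one_mul, ← hset, finsum_eq_sum_of_fintype,
        Nat.card_eq_fintype_card, Fintype.card_subtype, Finset.natCast_card_filter]
      refine Finset.sum_congr rfl fun c _ => ?_
      simp only [hf_def, hz_def, pointInd, hmem]
      split_ifs <;> simp
  obtain ⟨x, hx, hxc, hxs⟩ := hN v₁ hc₁
  obtain ⟨y, hy, hyc, hys⟩ := hN v₂ hc₂
  refine ⟨x, y, ?_, hxc, hyc⟩
  rw [hsum _ fun χ hχ => by rw [eig_eq_zero a hχ hf, mul_zero], oneChar_apply, hone] at hxs hys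
  rw [hΦv.1, hv₁.1, hv₁.2] at hxs
  rw [hΦv.2, hv₂.1, hv₂.2] at hys
  -- the arithmetic
  set α := eig (stabilizer G a) f Ψ
  set β := eig (stabilizer G a) f Ψ'
  have hp0 : (p : ℂ) ≠ 0 := Nat.cast_ne_zero.2 hpP.ne_zero
  have hpe : (p : ℂ) = 2 * (e : ℂ) + 1 := by rw [← he]; push_cast; ring
  push_cast at hxs hys
  have hS : α + β = 2 * (k : ℂ) - (p : ℂ) * ((x : ℂ) + y) := by
    linear_combination (-1 : ℂ) * (hxs + hys) + (α + β) * hAB
  have hD : (α - β) * (A - B) = (p : ℂ) * ((x : ℂ) - y) := by linear_combination hxs - hys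
  obtain ⟨b, hb⟩ := real_of_pow (z := eig (stabilizer G a) f Φ) hpP.ne_zero
    (m := -(k : ℤ) - e * (2 * k - p * (x + y))) (by
      push_cast
      linear_combination E1 - (e : ℂ) * hS) (isIntegral_eig hz _)
  have hk : (k : ℤ) = (e : ℤ) * (x + y) - b := by
    apply Int.cast_injective (α := ℂ)
    push_cast
    refine mul_left_cancel₀ hp0 ?_
    linear_combination E1 - (p : ℂ) * hb - (e : ℂ) * hS + (k : ℂ) * hpe
  have hnS : Complex.normSq (α + β) = (2 * (k : ℝ) - p * ((x : ℝ) + y)) ^ 2 := by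
    rw [hS, show (2 * (k : ℂ) - (p : ℂ) * ((x : ℂ) + y)) =
      ((2 * (k : ℝ) - p * ((x : ℝ) + y) : ℝ) : ℂ) by push_cast; ring, Complex.normSq_ofReal, sq]
  have hnD : Complex.normSq (α - β) = (p : ℝ) * ((x : ℝ) - y) ^ 2 := by
    have h := congrArg Complex.normSq hD
    rw [map_mul, hAB', show ((p : ℂ) * ((x : ℂ) - y)) = (((p : ℝ) * ((x : ℝ) - y) : ℝ) : ℂ) by
      push_cast; ring, Complex.normSq_ofReal] at h
    exact mul_right_cancel₀ (Nat.cast_ne_zero.2 hpP.ne_zero) (by linear_combination h)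
  have E2' : (k : ℝ) * k + (p : ℝ) * (b : ℝ) ^ 2 + (e : ℝ) * Complex.normSq α +
      (e : ℝ) * Complex.normSq β = 2 * (p : ℝ) * k := by
    rw [hb, Complex.normSq_intCast] at E2
    have h := congrArg Complex.re E2
    simp only [Complex.add_re, Complex.mul_re, Complex.natCast_re, Complex.natCast_im,
      Complex.ofReal_re, Complex.ofReal_im, Complex.re_ofNat, Complex.im_ofNat, mul_zero, zero_mul,
      sub_zero, add_zero, Complex.mul_im, Complex.intCast_re, Complex.intCast_im] at h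
    linarith
  have hpar : Complex.normSq (α + β) + Complex.normSq (α - β) =
      2 * (Complex.normSq α + Complex.normSq β) := by
    rw [Complex.normSq_add, Complex.normSq_sub]; ring
  rw [hnS, hnD] at hpar
  have hk' : (k : ℝ) = (e : ℝ) * ((x : ℝ) + y) - b := by exact_mod_cast hk
  have hpe' : (p : ℝ) = 2 * (e : ℝ) + 1 := by rw [← he]; push_cast; ring
  refine orbit_arith hpP he hx hy hk2 hk ?_
  apply Int.cast_injective (α := ℝ)
  push_cast
  refine mul_left_cancel₀ (show (p : ℝ) ≠ 0 from Nat.cast_ne_zero.2 hpP.ne_zero) ?_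
  rw [hk', hpe'] at hpar E2'
  rw [hpe']
  linear_combination 2 * E2' + (e : ℝ) * hpar

/-- There are no such constituents. -/
theorem false_of_two_small [IsPreprimitive G Ω] [FaithfulSMul G Ω] {p e : ℕ} [hp : Fact p.Prime]
    (he : 2 * e + 1 = p) (hΩ : Fintype.card Ω = 2 * p) (a : Ω)
    (hr : Nat.card (orbitRel.Quotient (stabilizer G a) Ω) = 4)
    {u v₁ v₂ : G} (hup : u ^ p = 1)
    (hu : ∀ x : Ω, u • x ≠ x) (hfix : ∀ x : Ω, v₁ • x ≠ x ∧ v₂ • x ≠ x)
    (hc₁ : Commute u v₁) (hc₂ : Commute u v₂)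
    {Φ Ψ Ψ' : IrrCharacter G} {A B : ℂ} (hd : Φ ≠ Ψ ∧ Φ ≠ Ψ' ∧ Ψ ≠ Ψ')
    (h1 : Φ ≠ oneChar G ∧ Ψ ≠ oneChar G ∧ Ψ' ≠ oneChar G)
    (hm : ∀ χ : IrrCharacter G, classInner (fixChar G Ω) (χ : G → ℂ) =
      if χ ∈ ({oneChar G, Φ, Ψ, Ψ'} : Set (IrrCharacter G)) then 1 else 0)
    (hΦ : (Φ : G → ℂ) 1 = p) (hΨ : (Ψ : G → ℂ) 1 = e) (hΨ' : (Ψ' : G → ℂ) 1 = e)
    (hΦv : (Φ : G → ℂ) v₁⁻¹ = 0 ∧ (Φ : G → ℂ) v₂⁻¹ = 0)
    (hv₁ : (Ψ : G → ℂ) v₁⁻¹ = A ∧ (Ψ' : G → ℂ) v₁⁻¹ = B)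
    (hv₂ : (Ψ : G → ℂ) v₂⁻¹ = B ∧ (Ψ' : G → ℂ) v₂⁻¹ = A)
    (hAB : A + B = -1) (hAB' : Complex.normSq (A - B) = p) : False := by
  classical
  set H := stabilizer G a
  let a' : orbitRel.Quotient H Ω := Quotient.mk _ a
  let _ : Fintype (orbitRel.Quotient H Ω) := Fintype.ofFinite _
  choose x y hxy hxc hyc using exists_orbit_data he hΩ a hup hu hc₁ hc₂ hd h1 hm hΦ hΨ hΨ' hΦv hv₁
    hv₂ hAB hAB'
  have htot : ∀ v : G, (∀ w : Ω, v • w ≠ w) →
      ∑ q ∈ (Finset.univ.erase a').attach, Nat.card {c : G ⧸ H //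
        Quotient.mk (orbitRel H Ω) ((c.out⁻¹ * v * c.out) • a) = q.1} = 2 * p := by
    intro v hv
    have hne : ∀ c : G ⧸ H, Quotient.mk (orbitRel H Ω) ((c.out⁻¹ * v * c.out) • a) ≠ a' := by
      intro c hc
      obtain ⟨h, hh⟩ := Quotient.exact hc
      have h2 : (h : G) • a = (c.out⁻¹ * v * c.out) • a := hh
      rw [show (h : G) • a = a from h.2, mul_smul, mul_smul, eq_comm, inv_smul_eq_iff] at h2
      exact hv _ h2
    rw [Finset.sum_attach (Finset.univ.erase a') fun q => Nat.card {c : G ⧸ H //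
        Quotient.mk (orbitRel H Ω) ((c.out⁻¹ * v * c.out) • a) = q}]
    simp only [Nat.card_eq_fintype_card, Fintype.card_subtype]
    rw [← Finset.card_eq_sum_card_fiberwise (s := (Finset.univ : Finset (G ⧸ H)))
      (fun c _ => Finset.mem_erase.2 ⟨hne c, Finset.mem_univ _⟩), Finset.card_univ, ← hΩ,
      ← Nat.card_eq_fintype_card, ← Nat.card_eq_fintype_card, ← index_stabilizer_of_transitive G a]
    rfl
  have hq : ∀ q : {q // q ∈ Finset.univ.erase a'}, q.1 ≠ a' := fun q => Finset.ne_of_mem_erase q.2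
  have t1 := htot v₁ fun w => (hfix w).1
  have t2 := htot v₂ fun w => (hfix w).2
  rw [Finset.sum_congr rfl fun q _ => hxc q.1 (hq q), ← Finset.mul_sum, mul_comm 2 p] at t1
  rw [Finset.sum_congr rfl fun q _ => hyc q.1 (hq q), ← Finset.mul_sum, mul_comm 2 p] at t2
  have s1 := Nat.eq_of_mul_eq_mul_left hp.out.pos t1
  have s2 := Nat.eq_of_mul_eq_mul_left hp.out.pos t2
  have h6 := Finset.card_nsmul_le_sum (Finset.univ.erase a').attach
    (fun q => x q.1 (hq q) + y q.1 (hq q)) 2 fun q _ => hxy _ _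
  rw [Finset.card_attach, Finset.card_erase_of_mem (Finset.mem_univ _), Finset.card_univ,
    ← Nat.card_eq_fintype_card, hr, Finset.sum_add_distrib, s1, s2, smul_eq_mul] at h6
  omega

end CfsgLib.PrimitiveTwoP
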