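import Cfsg.Agent.PrimitiveTwoP.Basic
import Cfsg.Agent.Chars.Basic.Columns

/-!
# Traces of orbitals of a transitive group

For a bi-invariant `z` the numbers `tr z χ = |H|⁻¹ ∑ z g χ g` are the eigenvalues of the orbital
operator; the column relation recovers the number of cosets moved along `z` by a given element.
-/

noncomputable section

namespace CfsgLib.PrimitiveTwoP

open MulAction Cfsg CfsgLib.Chars CfsgLib.Chars.Apps
open scoped ComplexConjugate

universe u w

variable {G : Type u} [Group G] [Fintype G] {H : Subgroup G}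

/-- The eigenvalue of the operator of `f`. -/
def eig (H : Subgroup G) (f : G → ℂ) (χ : IrrCharacter G) : ℂ :=
  (Nat.card H : ℂ)⁻¹ * ∑ g, f g * (χ : G → ℂ) g

theorem eig_eq_trace {n : ℕ} (ρ : Representation ℂ G (Fin n → ℂ)) {χ : IrrCharacter G}
    (hρ : ρ.character = (χ : G → ℂ)) (f : G → ℂ) :
    eig H f χ = LinearMap.trace ℂ _ (hecke ρ H f) := by
  rw [trace_hecke, eig, hρ]

/-- The coefficient sum over the conjugates. -/
theorem sum_mul_irr_eq (f : G → ℂ) (x : G) :
    ∑ χ : IrrCharacter G, (χ : G → ℂ) x⁻¹ * eig H f χ =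
      (Nat.card H : ℂ)⁻¹ * ∑ h : G, f (h⁻¹ * x * h) := by
  classical
  calc ∑ χ : IrrCharacter G, (χ : G → ℂ) x⁻¹ * eig H f χ
      = (Nat.card H : ℂ)⁻¹ *
          ∑ g, f g * ∑ χ : IrrCharacter G, (χ : G → ℂ) g * (χ : G → ℂ) x⁻¹ := by
        simp only [eig, Finset.mul_sum]
        rw [Finset.sum_comm]
        exact Finset.sum_congr rfl fun g _ => Finset.sum_congr rfl fun χ _ => by ring
    _ = (Nat.card H : ℂ)⁻¹ * ∑ g, f g * ((Finset.univ.filter fun h => h⁻¹ * x * h = g).card : ℂ) := by
        congr 1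
        refine Finset.sum_congr rfl fun g _ => ?_
        rw [sum_irr_mul_map_inv]
        congr 1
        split_ifs with hc
        · obtain ⟨c, hc⟩ := isConj_iff.1 hc
          have hc' : c⁻¹ * x * c = g := by rw [← hc]; group
          rw [Nat.card_eq_fintype_card]
          norm_cast
          rw [← Fintype.card_subtype]
          refine Fintype.card_congr ⟨fun k => ⟨c * k.1, ?_⟩, fun h => ⟨c⁻¹ * h.1, ?_⟩,
            fun k => by ext; simp, fun h => by ext; simp⟩
          · have hk := Subgroup.mem_centralizer_singleton_iff.1 k.2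
            calc (c * (k : G))⁻¹ * x * (c * k) = (k : G)⁻¹ * (c⁻¹ * x * c) * k := by group
              _ = (k : G)⁻¹ * g * k := by rw [hc']
              _ = g := by rw [mul_assoc, ← hk, inv_mul_cancel_left]
          · refine Subgroup.mem_centralizer_singleton_iff.2 ?_
            have hh := h.2
            calc c⁻¹ * (h : G) * g = c⁻¹ * (h : G) * ((h : G)⁻¹ * x * h) := by rw [hh]
              _ = (c⁻¹ * x * c) * (c⁻¹ * h) := by group
              _ = g * (c⁻¹ * h) := by rw [hc']
        · rw [eq_comm, Nat.cast_eq_zero, Finset.card_eq_zero, Finset.filter_eq_empty_iff]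
          intro h _ he
          refine hc (isConj_iff.2 ⟨h, ?_⟩)
          rw [← he]; group
    _ = _ := by
        congr 1
        rw [← Finset.sum_fiberwise Finset.univ (fun h => h⁻¹ * x * h) (fun h => f (h⁻¹ * x * h))]
        refine Finset.sum_congr rfl fun g _ => ?_
        rw [Finset.sum_congr rfl fun h hh => by rw [(Finset.mem_filter.1 hh).2], Finset.sum_const,
          nsmul_eq_mul, mul_comm]

/-- The transpose. -/
theorem eig_inv {z : G → ℤ} (χ : IrrCharacter G) :
    eig H (fun g => (z g⁻¹ : ℂ)) χ = conj (eig H (fun g => (z g : ℂ)) χ) := by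
  simp only [eig, map_mul, map_inv₀, map_natCast, map_sum, map_intCast]
  congr 1
  exact Fintype.sum_equiv (Equiv.inv G) _ _ fun g => by
    rw [Equiv.inv_apply, map_inv_eq_conj (isCharacter_coe χ), Complex.conj_conj]

variable {Ω : Type w} [Fintype Ω] [MulAction G Ω] [IsPretransitive G Ω] (a : Ω)

/-- A multiplicity one eigenvalue is multiplicative. -/
theorem eig_convH {χ : IrrCharacter G} (hm : classInner (fixChar G Ω) (χ : G → ℂ) = 1)
    {f f' : G → ℂ} (hf : IsBiInv (stabilizer G a) f) (hf' : IsBiInv (stabilizer G a) f') :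
    eig (stabilizer G a) (convH (stabilizer G a) f f') χ =
      eig (stabilizer G a) f χ * eig (stabilizer G a) f' χ := by
  obtain ⟨n, ρ, -, hρ⟩ := χ.2
  have h1 : LinearMap.trace ℂ _ (avgOp ρ (stabilizer G a)) = 1 := by
    rw [← classInner_fixChar_eq a, hρ]; exact hm
  simp only [eig_eq_trace ρ hρ]
  rw [← hecke_mul_hecke ρ hf hf']
  conv_lhs => rw [hecke_eq_smul ρ hf h1, hecke_eq_smul ρ hf' h1, smul_mul_smul_comm,
    avgOp_mul_avgOp ρ, map_smul, h1]
  rw [smul_eq_mul, mul_one]

theorem eig_eq_zero {χ : IrrCharacter G} (hm : classInner (fixChar G Ω) (χ : G → ℂ) = 0)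
    {f : G → ℂ} (hf : IsBiInv (stabilizer G a) f) : eig (stabilizer G a) f χ = 0 := by
  obtain ⟨n, ρ, -, hρ⟩ := χ.2
  rw [eig_eq_trace ρ hρ, hecke_eq_zero ρ hf (by rw [← classInner_fixChar_eq a, hρ]; exact hm),
    map_zero]

theorem isIntegral_eig {z : G → ℤ} (hz : IsBiInv H z) (χ : IrrCharacter G) :
    IsIntegral ℤ (eig H (fun g => (z g : ℂ)) χ) := by
  obtain ⟨n, ρ, -, hρ⟩ := χ.2
  rw [eig_eq_trace ρ hρ]
  exact isIntegral_trace_hecke ρ hz

end CfsgLib.PrimitiveTwoP
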